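import Mathlib
import Cfsg.Agent.Lib.Core.Pump

/-! `L`-balance and core balance inside a subgroup `H` of the ambient group. -/

set_option autoImplicit false

namespace Cfsg.Lib
open Subgroup

variable {G : Type*} [Group G] [Finite G]

omit [Finite G] in
theorem centralizer_subgroupOf_eq_inf {R H : Subgroup G} (hRH : R ≤ H) :
    centralizer ((R.subgroupOf H : Subgroup H) : Set H) =
      (H ⊓ centralizer (R : Set G)).subgroupOf H := by
  rw [centralizer_subgroupOf hRH, inf_subgroupOf_left]

theorem pLayerOf_inf_centralizer_le {R H : Subgroup G} (hR : IsPGroup 2 R) (hRH : R ≤ H) :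
    (pLayer 2 (H ⊓ centralizer (R : Set G) : Subgroup G)).map (Subgroup.subtype _) ≤
      (pLayer 2 H).map H.subtype := by
  have := pLayerOf_centralizer_le_pLayer (hR.comap_subtype (K := H))
  rw [← pLayerOf_subgroupOf (inf_le_left : H ⊓ centralizer (R : Set G) ≤ H),
    ← centralizer_subgroupOf_eq_inf hRH]
  exact map_mono this

theorem pPrimeCoreOf_inf_centralizer_le {R H : Subgroup G} (hR : IsPGroup 2 R) (hRH : R ≤ H) :
    (pPrimeCore 2 (H ⊓ centralizer (R : Set G) : Subgroup G)).map (Subgroup.subtype _) ≤
      (extendedTwoLayer H).map H.subtype := by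
  have := pPrimeCoreOf_centralizer_le_extendedTwoLayer (hR.comap_subtype (K := H))
  rw [← pPrimeCoreOf_subgroupOf (inf_le_left : H ⊓ centralizer (R : Set G) ≤ H),
    ← centralizer_subgroupOf_eq_inf hRH]
  exact map_mono this

end Cfsg.Lib
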